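import Mathlib

/-! # Field automorphisms as a basis of additive endomorphisms, char 2 -/

set_option linter.style.haveILetI false
set_option linter.unusedSectionVars false

namespace Cfsg.Agent.Lib.RankOne

variable {F : Type*} [Field F] [Fintype F] [CharP F 2]

open Module

theorem zmod2_cases : ∀ z : ZMod 2, z = 0 ∨ z = 1 := by decide

instance finiteAut : Finite (F ≃+* F) := by
  apply Finite.of_injective (fun σ : F ≃+* F => (σ : F → F))
  intro σ τ h
  exact DFunLike.coe_injective h

/-- Fintype structure on the automorphisms -/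
@[instance_reducible] noncomputable def fintypeAut : Fintype (F ≃+* F) := Fintype.ofFinite _

attribute [local instance] fintypeAut

theorem aut_linearIndependent :
    LinearIndependent F (fun σ : F ≃+* F => ((σ : F →+* F) : F → F)) := by
  have h := linearIndependent_monoidHom F F
  refine h.comp (fun σ : F ≃+* F => ((σ : F →+* F) : F →* F)) ?_
  intro σ τ hστ
  ext x
  exact congrArg (fun f : F →* F => f x) hστ

/-- The expansion in terms of field automorphisms, with coordinates. -/
theorem exists_aut_coord :
    ∃ C : (F →+ F) → (F ≃+* F) → F,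
      (∀ σ, ∀ f₁ f₂ : F →+ F, C (f₁ + f₂) σ = C f₁ σ + C f₂ σ) ∧
      ∀ (f : F →+ F) (x : F), f x = ∑ σ : F ≃+* F, C f σ * σ x := by
  classical
  letI : Algebra (ZMod 2) F := ZMod.algebra F 2
  haveI : Fact (Nat.Prime 2) := ⟨Nat.prime_two⟩
  let φ : (F ≃+* F) → (F →ₗ[ZMod 2] F) := fun σ => (σ : F →+ F).toZModLinearMap 2
  have hφ : ∀ σ x, φ σ x = σ x := fun _ _ => rfl
  have hli : LinearIndependent F φ := by
    rw [Fintype.linearIndependent_iff]
    intro c hc i
    have h2 := Fintype.linearIndependent_iff.mp (aut_linearIndependent (F := F)) c (by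
      funext x
      have h3 := LinearMap.congr_fun hc x
      simp only [LinearMap.sum_apply, LinearMap.smul_apply, hφ] at h3
      simpa using h3) i
    exact h2
  -- the number of automorphisms
  have hcard : Fintype.card (F ≃+* F) = finrank F (F →ₗ[ZMod 2] F) := by
    rw [Module.finrank_linearMap_self, ← IsGalois.card_aut_eq_finrank (ZMod 2) F,
      ← Nat.card_eq_fintype_card]
    refine Nat.card_congr ?_
    refine
      { toFun := fun σ => AlgEquiv.ofRingEquiv (f := σ) (fun r => ?_)
        invFun := fun σ => σ.toRingEquiv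
        left_inv := fun σ => by ext; rfl
        right_inv := fun σ => by ext; rfl }
    rcases zmod2_cases r with rfl | rfl <;> simp
  let b := basisOfLinearIndependentOfCardEqFinrank hli hcard
  have hb : ∀ σ, b σ = φ σ := fun σ => by
    simp [b, coe_basisOfLinearIndependentOfCardEqFinrank]
  refine ⟨fun f σ => b.repr (f.toZModLinearMap 2) σ, ?_, ?_⟩
  · intro σ f₁ f₂
    have : (f₁ + f₂).toZModLinearMap 2 = f₁.toZModLinearMap 2 + f₂.toZModLinearMap 2 := by
      ext; rfl
    simp only [this, map_add, Finsupp.add_apply]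
  · intro f x
    have h1 := b.sum_repr (f.toZModLinearMap 2)
    have h2 := LinearMap.congr_fun h1 x
    simp only [LinearMap.sum_apply, LinearMap.smul_apply, hb, hφ, smul_eq_mul] at h2
    have h3 : f x = (f.toZModLinearMap 2) x := rfl
    rw [h3, ← h2]

/-- Every biadditive map is an `F`-combination of `(x, y) ↦ σ x * τ y`. -/
theorem exists_biadd_coord (B : F →+ F →+ F) :
    ∃ c : (F ≃+* F) × (F ≃+* F) → F, ∀ x y : F,
      B x y = ∑ p : (F ≃+* F) × (F ≃+* F), c p * (p.1 x * p.2 y) := by
  classical
  obtain ⟨C, hadd, hC⟩ := exists_aut_coord (F := F)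
  let Cτ : (F ≃+* F) → F →+ F := fun τ => AddMonoidHom.mk' (fun x => C (B x) τ) (fun x x' => by
    rw [map_add]; exact hadd τ _ _)
  refine ⟨fun p => C (Cτ p.2) p.1, fun x y => ?_⟩
  rw [Fintype.sum_prod_type_right]
  rw [hC (B x) y]
  refine Finset.sum_congr rfl (fun τ _ => ?_)
  have h1 : C (B x) τ = Cτ τ x := rfl
  rw [h1, hC (Cτ τ) x, Finset.sum_mul]
  refine Finset.sum_congr rfl (fun σ _ => ?_)
  ring

end Cfsg.Agent.Lib.RankOne
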