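import Mathlib
import Cfsg.Prelude.Def_LieRecognition

/-! # The split rank-one set-up: elementary facts

`G` doubly transitive on `Ω`, `t` an involution moving `a`, `Q` normal in `G_a`, `G_a = Q D`,
`Q ⊓ D = 1`, `|Q|` even, `|D|` odd. -/

set_option linter.style.haveILetI false
set_option linter.unusedSectionVars false

namespace Cfsg.Agent.Lib.RankOne

open MulAction Cfsg

variable {G Ω : Type*} [Group G] [Finite G] [MulAction G Ω] {a : Ω} {t : G} {Q : Subgroup G}

/-- The two-point stabiliser. -/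
abbrev DD (G : Type*) {Ω : Type*} [Group G] [MulAction G Ω] (a : Ω) (t : G) : Subgroup G :=
  stabilizer G a ⊓ stabilizer G (t • a)

namespace Setup

variable (hS : IsRankOneSetup G Ω a t Q)
include hS

lemma two_trans (b c b' c' : Ω) (h : b ≠ c) (h' : b' ≠ c') :
    ∃ g : G, g • b = b' ∧ g • c = c' := by
  haveI := hS.two_transitive
  exact is_two_pretransitive_iff.mp hS.two_transitive h h'

lemma t_ne : t • a ≠ a := hS.not_mem

lemma t_t (x : Ω) : t • t • x = x := by
  rw [← mul_smul, hS.mul_self, one_smul]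

lemma t_inv : t⁻¹ = t := inv_eq_of_mul_eq_one_left hS.mul_self

lemma trans (c d : Ω) : ∃ g : G, g • c = d := by
  by_cases hcd : c = d
  · exact ⟨1, by rw [one_smul, hcd]⟩
  · obtain ⟨g, hg, -⟩ := two_trans hS c d d c hcd (Ne.symm hcd)
    exact ⟨g, hg⟩

lemma isPretransitive : IsPretransitive G Ω := ⟨trans hS⟩

lemma finite_Ω : Finite Ω := by
  haveI := isPretransitive hS
  exact Finite.of_surjective (fun g : G => g • a) (fun c => by
    obtain ⟨g, hg⟩ := trans hS a c
    exact ⟨g, hg⟩)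

lemma exists_mul {g : G} (hg : g ∈ stabilizer G a) :
    ∃ x ∈ Q, ∃ d ∈ DD G a t, g = x * d := by
  have hD : DD G a t ≤ stabilizer G a := inf_le_left
  let S : Subgroup G :=
    { carrier := {g | ∃ x ∈ Q, ∃ d ∈ DD G a t, g = x * d}
      one_mem' := ⟨1, Q.one_mem, 1, (DD G a t).one_mem, by simp⟩
      mul_mem' := by
        rintro _ _ ⟨x, hx, d, hd, rfl⟩ ⟨x', hx', d', hd', rfl⟩
        refine ⟨x * (d * x' * d⁻¹), Q.mul_mem hx (hS.conj_mem d (hD hd) x' hx'), d * d',
          (DD G a t).mul_mem hd hd', by group⟩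
      inv_mem' := by
        rintro _ ⟨x, hx, d, hd, rfl⟩
        refine ⟨d⁻¹ * x⁻¹ * d⁻¹⁻¹, hS.conj_mem _ (hD ((DD G a t).inv_mem hd)) _ (Q.inv_mem hx), d⁻¹,
          (DD G a t).inv_mem hd, by group⟩ }
  have hle : Q ⊔ DD G a t ≤ S := by
    refine sup_le ?_ ?_
    · intro x hx
      exact ⟨x, hx, 1, (DD G a t).one_mem, by simp⟩
    · intro d hd
      exact ⟨1, Q.one_mem, d, hd, by simp⟩
  rw [hS.sup_eq] at hle
  exact hle hg

lemma Q_trans {c : Ω} (hc : c ≠ a) : ∃ x ∈ Q, x • (t • a) = c := by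
  obtain ⟨g, hg, hg'⟩ := two_trans hS a (t • a) a c (Ne.symm (t_ne hS)) (Ne.symm hc)
  obtain ⟨x, hx, d, hd, rfl⟩ := exists_mul hS (show g ∈ stabilizer G a from hg)
  refine ⟨x, hx, ?_⟩
  have hdb : d • (t • a) = t • a := hd.2
  rw [mul_smul, hdb] at hg'
  exact hg'

lemma Q_bot {x : G} (hx : x ∈ Q) (hb : x • (t • a) = t • a) : x = 1 := by
  have : x ∈ Q ⊓ stabilizer G (t • a) := ⟨hx, hb⟩
  rw [hS.inf_eq_bot] at this
  exact this

lemma Q_free {x : G} (hx : x ∈ Q) {c : Ω} (hc : c ≠ a) (hxc : x • c = c) : x = 1 := by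
  obtain ⟨y, hy, rfl⟩ := Q_trans hS hc
  have h1 : (y⁻¹ * x * y) • (t • a) = t • a := by
    rw [mul_smul, mul_smul, hxc, inv_smul_smul]
  have h2 : y⁻¹ * x * y ∈ Q := Q.mul_mem (Q.mul_mem (Q.inv_mem hy) hx) hy
  have h3 := Q_bot hS h2 h1
  have h4 : x = y * (y⁻¹ * x * y) * y⁻¹ := by group
  rw [h4, h3]
  group

lemma Q_unique {x y : G} (hx : x ∈ Q) (hy : y ∈ Q) {c : Ω} (hc : c ≠ a) (h : x • c = y • c) :
    x = y := by
  have h1 : (y⁻¹ * x) • c = c := by
    rw [mul_smul, h, inv_smul_smul]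
  have h2 := Q_free hS (Q.mul_mem (Q.inv_mem hy) hx) hc h1
  exact (inv_mul_eq_one.mp h2).symm

lemma fix_unique {s : G} (hs : s ∈ Q) (hs1 : s ≠ 1) {c : Ω} (hc : s • c = c) : c = a := by
  by_contra hne
  exact hs1 (Q_free hS hs hne hc)

lemma Q_smul_a {x : G} (hx : x ∈ Q) : x • a = a := hS.le hx

lemma odd_D_card : Odd (Nat.card (DD G a t)) := hS.odd_card

lemma D_odd_order {d : G} (hd : d ∈ DD G a t) : Odd (orderOf d) := by
  have h1 : orderOf d ∣ Nat.card (DD G a t) := Subgroup.orderOf_dvd_natCard _ hd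
  exact Odd.of_dvd_nat (odd_D_card hS) h1

lemma D_sq_eq_one {d : G} (hd : d ∈ DD G a t) (h : d * d = 1) : d = 1 := by
  have h1 : orderOf d ∣ 2 := orderOf_dvd_of_pow_eq_one (by rw [pow_two, h])
  have h2 := D_odd_order hS hd
  rcases (Nat.dvd_prime Nat.prime_two).mp h1 with h3 | h3
  · exact orderOf_eq_one_iff.mp h3
  · rw [h3] at h2
    exact absurd h2 (by decide)

lemma inf_Q_D : Q ⊓ DD G a t = ⊥ := by
  rw [eq_bot_iff]
  rintro x ⟨h1, h2⟩
  exact Q_bot hS h1 h2.2

lemma mem_Q_of_invol {s : G} (hs : s ∈ stabilizer G a) (h2 : s * s = 1) : s ∈ Q := by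
  obtain ⟨x, hx, d, hd, rfl⟩ := exists_mul hS hs
  have hD : DD G a t ≤ stabilizer G a := inf_le_left
  have h1 : d * d = (d * x⁻¹ * d⁻¹) * x⁻¹ := by
    have : x * d * (x * d) = 1 := h2
    calc d * d = (d * x⁻¹ * d⁻¹) * x⁻¹ * (x * (d * x * d⁻¹) * (d * d)) := by group
      _ = (d * x⁻¹ * d⁻¹) * x⁻¹ * (x * d * (x * d)) := by group
      _ = (d * x⁻¹ * d⁻¹) * x⁻¹ := by rw [this, mul_one]
  have h3 : d * d ∈ Q := by
    rw [h1]
    exact Q.mul_mem (hS.conj_mem d (hD hd) _ (Q.inv_mem hx)) (Q.inv_mem hx)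
  have h4 : d * d ∈ Q ⊓ DD G a t := ⟨h3, (DD G a t).mul_mem hd hd⟩
  rw [inf_Q_D hS] at h4
  have h5 := D_sq_eq_one hS hd h4
  rw [h5, mul_one]
  exact hx

lemma exists_invol : ∃ s ∈ Q, s ≠ 1 ∧ s * s = 1 := by
  have h1 : 2 ∣ Nat.card Q := hS.even_card.two_dvd
  haveI : Fact (Nat.Prime 2) := ⟨Nat.prime_two⟩
  obtain ⟨x, hx⟩ := exists_prime_orderOf_dvd_card' (G := Q) 2 h1
  refine ⟨x, x.2, ?_, ?_⟩
  · intro h
    have : x = 1 := Subtype.ext h
    rw [this, orderOf_one] at hx
    omega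
  · have h2 : x ^ 2 = 1 := by rw [← hx]; exact pow_orderOf_eq_one x
    rw [pow_two] at h2
    exact congrArg Subtype.val h2

/-- An element commuting with a non-identity element of `Q` fixes `a`. -/
lemma mem_stab_of_commute {s g : G} (hs : s ∈ Q) (hs1 : s ≠ 1) (h : g * s = s * g) : g • a = a := by
  apply fix_unique hS hs hs1
  rw [← mul_smul, ← h, mul_smul, Q_smul_a hS hs]

/-- The product of two involutions, one in `G_a`, the other outside, has odd order. -/
lemma odd_order_mul {s u : G} (hsa : s ∈ stabilizer G a) (hs1 : s ≠ 1) (hs2 : s * s = 1)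
    (hua : u ∉ stabilizer G a) (hu2 : u * u = 1) : Odd (orderOf (s * u)) := by
  by_contra hodd
  rw [Nat.not_odd_iff_even] at hodd
  obtain ⟨m, hm⟩ := hodd
  set r := s * u with hr
  have hpos : 0 < orderOf r := orderOf_pos r
  have hsinv : s⁻¹ = s := inv_eq_of_mul_eq_one_left hs2
  have huinv : u⁻¹ = u := inv_eq_of_mul_eq_one_left hu2
  have hrinv : r⁻¹ = u * s := by rw [hr, mul_inv_rev, hsinv, huinv]
  have hsr : s * r * s = r⁻¹ := by
    rw [hrinv, hr, ← mul_assoc, hs2, one_mul]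
  have hur : u * r * u = r⁻¹ := by
    rw [hrinv, hr, mul_assoc, mul_assoc, hu2, mul_one]
  set z := r ^ m with hz
  have hz1 : z ≠ 1 := by
    intro h
    have h1 := orderOf_le_of_pow_eq_one (by omega) h
    omega
  have hz2 : z * z = 1 := by
    rw [hz, ← pow_add, ← hm]
    exact pow_orderOf_eq_one r
  have hzinv : z⁻¹ = z := inv_eq_of_mul_eq_one_left hz2
  have hconj : ∀ g : G, g * g = 1 → g * r * g = r⁻¹ → g * z * g = z := by
    intro g hg hg2
    have hginv : g⁻¹ = g := inv_eq_of_mul_eq_one_left hg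
    have h1 : g * r ^ m * g = (g * r * g) ^ m := by
      have h2 := conj_pow (a := g) (b := r) (i := m)
      rw [hginv] at h2
      exact h2.symm
    rw [hz, h1, hg2, inv_pow, ← hz, hzinv]
  have hzs : s * z * s = z := hconj s hs2 hsr
  have hzu : u * z * u = z := hconj u hu2 hur
  have hsQ := mem_Q_of_invol hS hsa hs2
  have hzs' : z * s = s * z := by
    calc z * s = (s * z * s) * s := by rw [hzs]
      _ = s * z * (s * s) := by group
      _ = s * z := by rw [hs2, mul_one]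
  have hza : z • a = a := mem_stab_of_commute hS hsQ hs1 hzs'
  have hzQ := mem_Q_of_invol hS (show z ∈ stabilizer G a from hza) hz2
  have hzu' : u * z = z * u := by
    calc u * z = (u * z * u) * u := by
          rw [mul_assoc (u * z), hu2, mul_one]
      _ = z * u := by rw [hzu]
  exact hua (mem_stab_of_commute hS hzQ hz1 hzu')

end Setup

/-- In a dihedral group with `su` of odd order `2m + 1`: conjugation facts. -/
lemma dihedral_conj {s u : G} (hs : s * s = 1) (hu : u * u = 1) {m : ℕ}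
    (hm : orderOf (s * u) = 2 * m + 1) :
    ((s * u) ^ m * s) * ((s * u) ^ m * s) = 1 ∧
    ((s * u) ^ m * s) * s * ((s * u) ^ m * s) = u := by
  set r := s * u with hr
  have hsinv : s⁻¹ = s := inv_eq_of_mul_eq_one_left hs
  have huinv : u⁻¹ = u := inv_eq_of_mul_eq_one_left hu
  have hrinv : r⁻¹ = u * s := by rw [hr, mul_inv_rev, hsinv, huinv]
  have hsr : s * r * s = r⁻¹ := by
    rw [hrinv, hr, ← mul_assoc, hs, one_mul]
  have hsrm : s * r ^ m * s = (r ^ m)⁻¹ := by
    have h2 := conj_pow (a := s) (b := r) (i := m)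
    rw [hsinv] at h2
    rw [← h2, hsr, inv_pow]
  have hrm : r ^ m * r ^ m = r⁻¹ := by
    rw [← pow_add, ← two_mul]
    have h1 : r ^ (2 * m + 1) = 1 := by rw [← hm]; exact pow_orderOf_eq_one r
    rw [pow_succ] at h1
    exact eq_inv_of_mul_eq_one_left h1
  constructor
  · calc r ^ m * s * (r ^ m * s) = r ^ m * (s * r ^ m * s) := by group
      _ = 1 := by rw [hsrm]; group
  · calc r ^ m * s * s * (r ^ m * s) = r ^ m * (s * s) * (r ^ m * s) := by group
      _ = r ^ m * r ^ m * s := by rw [hs]; group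
      _ = r⁻¹ * s := by rw [hrm]
      _ = u := by rw [hrinv, mul_assoc, hs, mul_one]


/-- An element of odd order conjugating `x` to `x⁻¹` commutes with `x` -/
lemma commute_of_conj_inv {y x : G} (hy : Odd (orderOf y)) (h : y * x * y⁻¹ = x⁻¹) :
    y * x = x * y := by
  have hinv : y⁻¹ * x * y = x⁻¹ := by
    calc y⁻¹ * x * y = y⁻¹ * (y * x * y⁻¹)⁻¹ * y := by rw [h, inv_inv]
      _ = x⁻¹ := by group
  have h2 : (y * y) * x = x * (y * y) := by
    have h3 : y * x = x⁻¹ * y := by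
      rw [← h]; group
    have h4 : y * x⁻¹ = x * y := by
      have h5 : y * x⁻¹ * y⁻¹ = x := by
        have : y * x⁻¹ * y⁻¹ = (y * x * y⁻¹)⁻¹ := by group
        rw [this, h, inv_inv]
      exact mul_inv_eq_iff_eq_mul.mp h5
    calc y * y * x = y * (y * x) := by group
      _ = y * (x⁻¹ * y) := by rw [h3]
      _ = (y * x⁻¹) * y := by group
      _ = x * y * y := by rw [h4]
      _ = x * (y * y) := by group
  obtain ⟨m, hm⟩ := hy
  have h6 : y = (y * y) ^ (m + 1) := by
    rw [← pow_two, ← pow_mul]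
    have h7 : y ^ (2 * m + 1) = 1 := by rw [← hm]; exact pow_orderOf_eq_one y
    have h8 : 2 * (m + 1) = (2 * m + 1) + 1 := by ring
    rw [h8, pow_succ, h7, one_mul]
  have hc : Commute (y * y) x := h2
  have h9 : Commute ((y * y) ^ (m + 1)) x := hc.pow_left _
  rw [← h6] at h9
  exact h9

namespace Setup

variable (hS : IsRankOneSetup G Ω a t Q)
include hS

/-- A conjugate of a set-up is a set-up. -/
lemma conj (g : G) :
    IsRankOneSetup G Ω (g • a) (g * t * g⁻¹) (Q.map (MulAut.conj g).toMonoidHom) := by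
  have hstab : ∀ c : Ω, stabilizer G (g • c) = (stabilizer G c).map (MulAut.conj g).toMonoidHom :=
    fun c => stabilizer_smul_eq_stabilizer_map_conj g c
  have hsm : (g * t * g⁻¹) • (g • a) = g • (t • a) := by
    rw [mul_smul, mul_smul, inv_smul_smul]
  have hinj : Function.Injective (MulAut.conj g).toMonoidHom := (MulAut.conj g).injective
  refine ⟨hS.two_transitive, ?_, ?_, ?_, ?_, ?_, ?_, ?_, ?_, ?_⟩
  · calc g * t * g⁻¹ * (g * t * g⁻¹) = g * (t * t) * g⁻¹ := by group
      _ = 1 := by rw [hS.mul_self]; group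
  · intro h
    apply hS.ne_one
    have : t = g⁻¹ * (g * t * g⁻¹) * g := by group
    rw [this, h]
    group
  · intro h
    have h1 : (g * t * g⁻¹) • (g • a) = g • a := h
    rw [hsm] at h1
    exact hS.not_mem (smul_left_cancel g h1)
  · rw [hstab]
    exact Subgroup.map_mono hS.le
  · intro h hh x hx
    rw [hstab] at hh
    obtain ⟨h', hh', rfl⟩ := hh
    obtain ⟨x', hx', rfl⟩ := hx
    refine ⟨h' * x' * h'⁻¹, hS.conj_mem h' hh' x' hx', ?_⟩
    simp [MulAut.conj_apply, mul_assoc]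
  · rw [hsm, hstab, ← Subgroup.map_inf _ _ _ hinj, hS.inf_eq_bot, Subgroup.map_bot]
  · rw [hsm, hstab, hstab, ← Subgroup.map_inf _ _ _ hinj, ← Subgroup.map_sup, hS.sup_eq]
  · have : Nat.card (Q.map (MulAut.conj g).toMonoidHom) = Nat.card Q :=
      Subgroup.card_map_of_injective hinj
    rw [this]
    exact hS.even_card
  · rw [hsm, hstab, hstab, ← Subgroup.map_inf _ _ _ hinj]
    have : Nat.card ((stabilizer G a ⊓ stabilizer G (t • a)).map (MulAut.conj g).toMonoidHom) =
        Nat.card ↥(stabilizer G a ⊓ stabilizer G (t • a)) :=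
      Subgroup.card_map_of_injective hinj
    rw [this]
    exact hS.odd_card

/-- The conjugate of the set-up by `t` is a set-up at `t • a`. -/
lemma conj_t : IsRankOneSetup G Ω (t • a) t (Q.map (MulAut.conj t).toMonoidHom) := by
  have h := conj hS t
  have h1 : t * t * t⁻¹ = t := by group
  rwa [h1] at h

/-- A different involution moving `a` gives a set-up too. -/
lemma change_t {t' : G} (h2 : t' * t' = 1) (h1 : t' ≠ 1) (hn : t' ∉ stabilizer G a) :
    IsRankOneSetup G Ω a t' Q := by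
  have hc : t' • a ≠ a := hn
  obtain ⟨x, hx, hxb⟩ := Q_trans hS hc
  have hxa : x • a = a := hS.le hx
  have hD : stabilizer G a ⊓ stabilizer G (t' • a) =
      (stabilizer G a ⊓ stabilizer G (t • a)).map (MulAut.conj x).toMonoidHom := by
    have hinj : Function.Injective (MulAut.conj x).toMonoidHom := (MulAut.conj x).injective
    rw [Subgroup.map_inf _ _ _ hinj, ← stabilizer_smul_eq_stabilizer_map_conj,
      ← stabilizer_smul_eq_stabilizer_map_conj, hxa, hxb]
  refine ⟨hS.two_transitive, h2, h1, hn, hS.le, hS.conj_mem, ?_, ?_, hS.even_card, ?_⟩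
  · rw [eq_bot_iff]
    rintro y ⟨hy, hy2⟩
    exact Q_free hS hy hc hy2
  · apply le_antisymm
    · refine sup_le hS.le inf_le_left
    · intro g hg
      have hg' : x⁻¹ * g * x ∈ stabilizer G a := by
        have hxs : x ∈ stabilizer G a := hxa
        exact Subgroup.mul_mem _ (Subgroup.mul_mem _ (Subgroup.inv_mem _ hxs) hg) hxs
      obtain ⟨y, hy, d, hd, hyd⟩ := exists_mul hS hg'
      have h3 : g = (x * y * x⁻¹) * (x * d * x⁻¹) := by
        have : g = x * (x⁻¹ * g * x) * x⁻¹ := by group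
        rw [this, hyd]
        group
      rw [h3]
      refine Subgroup.mul_mem _ (Subgroup.mem_sup_left (hS.conj_mem x hxa y hy)) (Subgroup.mem_sup_right ?_)
      rw [hD]
      exact ⟨d, hd, by simp [MulAut.conj_apply]⟩
  · rw [hD]
    have hinj : Function.Injective (MulAut.conj x).toMonoidHom := (MulAut.conj x).injective
    have : Nat.card ((stabilizer G a ⊓ stabilizer G (t • a)).map (MulAut.conj x).toMonoidHom) =
        Nat.card ↥(stabilizer G a ⊓ stabilizer G (t • a)) :=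
      Subgroup.card_map_of_injective hinj
    rw [this]
    exact hS.odd_card

/-- An involution of `G_a` and one outside are conjugate by an involution. -/
lemma exists_conj_in_out {s u : G} (hsa : s ∈ stabilizer G a) (hs1 : s ≠ 1) (hs2 : s * s = 1)
    (hua : u ∉ stabilizer G a) (hu2 : u * u = 1) : ∃ w : G, w * w = 1 ∧ w * s * w = u := by
  obtain ⟨m, hm⟩ := odd_order_mul hS hsa hs1 hs2 hua hu2
  exact ⟨_, dihedral_conj hs2 hu2 hm⟩

/-- All involutions are conjugate. -/
lemma invol_conj {u v : G} (hu1 : u ≠ 1) (hu2 : u * u = 1) (hv1 : v ≠ 1) (hv2 : v * v = 1) :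
    ∃ g : G, g * u * g⁻¹ = v := by
  have key : ∀ {s u : G}, s ∈ stabilizer G a → s ≠ 1 → s * s = 1 → u ∉ stabilizer G a → u * u = 1 →
      ∃ g : G, g * s * g⁻¹ = u := by
    intro s u h1 h2 h3 h4 h5
    obtain ⟨w, hw, hw2⟩ := exists_conj_in_out hS h1 h2 h3 h4 h5
    refine ⟨w, ?_⟩
    rw [inv_eq_of_mul_eq_one_left hw]
    exact hw2
  have key' : ∀ {s u : G}, s ∈ stabilizer G a → s ≠ 1 → s * s = 1 → u ∉ stabilizer G a → u * u = 1 →
      ∃ g : G, g * u * g⁻¹ = s := by
    intro s u h1 h2 h3 h4 h5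
    obtain ⟨g, hg⟩ := key h1 h2 h3 h4 h5
    refine ⟨g⁻¹, ?_⟩
    rw [← hg]
    group
  by_cases hu : u ∈ stabilizer G a
  · by_cases hv : v ∈ stabilizer G a
    · obtain ⟨g₁, hg₁⟩ := key hu hu1 hu2 hS.not_mem hS.mul_self
      obtain ⟨g₂, hg₂⟩ := key' hv hv1 hv2 hS.not_mem hS.mul_self
      refine ⟨g₂ * g₁, ?_⟩
      rw [← hg₂, ← hg₁]
      group
    · exact key hu hu1 hu2 hv hv2
  · obtain ⟨s, hsQ, hs1, hs2⟩ := exists_invol hS
    have hsa := hS.le hsQ
    by_cases hv : v ∈ stabilizer G a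
    · exact key' hv hv1 hv2 hu hu2
    · obtain ⟨g₁, hg₁⟩ := key' hsa hs1 hs2 hu hu2
      obtain ⟨g₂, hg₂⟩ := key hsa hs1 hs2 hv hv2
      refine ⟨g₂ * g₁, ?_⟩
      rw [← hg₂, ← hg₁]
      group

/-- Every involution has exactly one fixed point. -/
lemma invol_fix {u : G} (hu1 : u ≠ 1) (hu2 : u * u = 1) : ∃! c : Ω, u • c = c := by
  obtain ⟨s, hsQ, hs1, hs2⟩ := exists_invol hS
  obtain ⟨g, rfl⟩ := invol_conj hS hs1 hs2 hu1 hu2
  refine ⟨g • a, ?_, ?_⟩
  · show (g * s * g⁻¹) • g • a = g • a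
    rw [mul_smul, mul_smul, inv_smul_smul, Q_smul_a hS hsQ]
  · intro c hc
    have h1 : s • (g⁻¹ • c) = g⁻¹ • c := by
      have h2 : (g * s * g⁻¹) • c = c := hc
      rw [mul_smul, mul_smul, smul_eq_iff_eq_inv_smul] at h2
      exact h2
    rw [fix_unique hS hsQ hs1 h1 |> fun h => (eq_inv_smul_iff.mp h.symm).symm]

lemma fix_eq {u : G} (hu1 : u ≠ 1) (hu2 : u * u = 1) {c d : Ω} (hc : u • c = c) (hd : u • d = d) :
    c = d := (invol_fix hS hu1 hu2).unique hc hd

/-- An involution commuting with `g`: `g` preserves its fixed point. -/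
lemma fix_of_commute {u g : G} (hu1 : u ≠ 1) (hu2 : u * u = 1) (hg : g * u = u * g) {c : Ω}
    (hc : u • c = c) : g • c = c := by
  apply fix_eq hS hu1 hu2 _ hc
  rw [← mul_smul, ← hg, mul_smul, hc]

/-- Uniqueness: involutions of `G_a`, `G_b` are conjugate by a unique involution swapping `a, b`. -/
lemma exists_unique_swap {s u : G} (hsa : s • a = a) (hs1 : s ≠ 1) (hs2 : s * s = 1)
    (hub : u • (t • a) = t • a) (hu1 : u ≠ 1) (hu2 : u * u = 1) :
    ∃! w : G, w * w = 1 ∧ w • a = t • a ∧ w * s * w = u := by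
  have hua : u ∉ stabilizer G a := by
    intro h
    have h1 : u • a = a := h
    exact t_ne hS (fix_eq hS hu1 hu2 hub h1)
  obtain ⟨m, hm⟩ := odd_order_mul hS hsa hs1 hs2 hua hu2
  obtain ⟨hw2, hws⟩ := dihedral_conj hs2 hu2 hm
  set w := (s * u) ^ m * s with hw
  have hwa : w • a = t • a := by
    apply fix_eq hS hu1 hu2 _ hub
    have : u • w • a = (w * s * w) • w • a := by rw [hws]
    rw [this, mul_smul, mul_smul, ← mul_smul w w, hw2, one_smul, hsa]
  refine ⟨w, ⟨hw2, hwa, hws⟩, ?_⟩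
  rintro w₂ ⟨hw₂2, hw₂a, hw₂s⟩
  set c := w * w₂ with hc
  have hwinv : w⁻¹ = w := inv_eq_of_mul_eq_one_left hw2
  have hw₂inv : w₂⁻¹ = w₂ := inv_eq_of_mul_eq_one_left hw₂2
  have hwb : w • t • a = a := by rw [← hwa, ← mul_smul, hw2, one_smul]
  have hw₂b : w₂ • t • a = a := by rw [← hw₂a, ← mul_smul, hw₂2, one_smul]
  have hcD : c ∈ DD G a t := by
    constructor
    · show (w * w₂) • a = a
      rw [mul_smul, hw₂a, hwb]
    · show (w * w₂) • t • a = t • a
      rw [mul_smul, hw₂b, hwa]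
  have hus : w * u * w = s := by
    rw [← hws]
    calc w * (w * s * w) * w = (w * w) * s * (w * w) := by group
      _ = s := by rw [hw2]; group
  have hright : ∀ {x y z : G}, x * y * x = z → x * x = 1 → x * y = z * x := by
    intro x y z h1 h2
    rw [← h1, mul_assoc (x * y), h2, mul_one]
  have e1 : w₂ * s = u * w₂ := hright hw₂s hw₂2
  have e2 : w * u = s * w := hright hus hw2
  have hcs : c * s = s * c := by
    calc c * s = w * (w₂ * s) := by rw [hc]; group
      _ = w * (u * w₂) := by rw [e1]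
      _ = (w * u) * w₂ := by group
      _ = s * w * w₂ := by rw [e2]
      _ = s * c := by rw [hc]; group
  have hus₂ : w₂ * u * w₂ = s := by
    rw [← hw₂s]
    calc w₂ * (w₂ * s * w₂) * w₂ = (w₂ * w₂) * s * (w₂ * w₂) := by group
      _ = s := by rw [hw₂2]; group
  have e3 : w₂ * u = s * w₂ := hright hus₂ hw₂2
  have e4 : w * s = u * w := hright hws hw2
  have hcu : c * u = u * c := by
    calc c * u = w * (w₂ * u) := by rw [hc]; group
      _ = w * (s * w₂) := by rw [e3]
      _ = (w * s) * w₂ := by group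
      _ = u * w * w₂ := by rw [e4]
      _ = u * c := by rw [hc]; group
  have hccw : c * w = w * c := by
    have h1 : Commute c s := hcs
    have h2 : Commute c u := hcu
    have h3 : Commute c ((s * u) ^ m * s) := ((h1.mul_right h2).pow_right m).mul_right h1
    exact h3
  have hcc : c * c = 1 := by
    have h1 : w * c * w = c⁻¹ := by
      rw [hc, mul_inv_rev, hwinv, hw₂inv]
      calc w * (w * w₂) * w = (w * w) * w₂ * w := by group
        _ = w₂ * w := by rw [hw2, one_mul]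
    have h2 : w * c * w = c := by
      rw [← hccw, mul_assoc, hw2, mul_one]
    rw [h2] at h1
    calc c * c = c * c⁻¹ := by rw [← h1]
      _ = 1 := mul_inv_cancel c
  have hc1 := D_sq_eq_one hS hcD hcc
  have h5 : w₂ = w⁻¹ := eq_inv_of_mul_eq_one_right hc1
  rw [h5, hwinv]

end Setup

end Cfsg.Agent.Lib.RankOne
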