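import Cfsg.Agent.Lib.RankOne.Fix

/-! # The split rank-one set-up: the group `V = C_D(t)` -/

set_option linter.style.haveILetI false
set_option linter.unusedSectionVars false

namespace Cfsg.Agent.Lib.RankOne

open MulAction Cfsg

variable {G Ω : Type*} [Group G] [Finite G] [MulAction G Ω] {a : Ω} {t : G} {Q : Subgroup G}

lemma conj_eq_of_comm {d x : G} (h : d * x = x * d) : d * x * d⁻¹ = x := by
  rw [h]; group

lemma conj_inv_eq_of_comm {d x : G} (h : d * x = x * d) : d⁻¹ * x * d = x := by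
  rw [mul_assoc, ← h]; group

namespace Setup

variable (hS : IsRankOneSetup G Ω a t Q)
include hS

lemma J_conj {d s : G} (hd : d ∈ stabilizer G a) (hs : s ∈ involutionsIn (stabilizer G a : Set G)) :
    d * s * d⁻¹ ∈ involutionsIn (stabilizer G a : Set G) := by
  obtain ⟨h1, h2, h3⟩ := hs
  refine ⟨Subgroup.mul_mem _ (Subgroup.mul_mem _ hd h1) (Subgroup.inv_mem _ hd), ?_, ?_⟩
  · intro h
    apply h2
    have : s = d⁻¹ * (d * s * d⁻¹) * d := by group
    rw [this, h]; group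
  · calc d * s * d⁻¹ * (d * s * d⁻¹) = d * (s * s) * d⁻¹ := by group
      _ = 1 := by rw [h3]; group

lemma one_mem_K : (1 : G) ∈ invertedBy (DD G a t) t := by
  refine ⟨Subgroup.one_mem _, ?_⟩
  simp

/-- If `t s t = r⁻¹ t r`, then `d ∈ D` commutes with `t` iff it commutes with `s`. -/
lemma commute_t_iff {s r d : G} (hs : s ∈ involutionsIn (stabilizer G a : Set G)) (hr : r ∈ Q)
    (heq : t * s * t = r⁻¹ * t * r) (hd : d ∈ DD G a t) : d * t = t * d ↔ d * s = s * d := by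
  have hDa : DD G a t ≤ stabilizer G a := inf_le_left
  obtain ⟨p, -, huniq⟩ := exists_unique_structure hS
  have hp0 := huniq (s, r) ⟨hs, hr, heq⟩
  constructor
  · intro hdt
    have hdt' : t * d = d * t := hdt.symm
    have hdinv : d⁻¹ * t = t * d⁻¹ := by
      have : Commute t d := hdt'
      exact (this.inv_right).eq.symm
    have h1 : t * (d * s * d⁻¹) * t = (d * r * d⁻¹)⁻¹ * t * (d * r * d⁻¹) := by
      calc t * (d * s * d⁻¹) * t = (t * d) * s * (d⁻¹ * t) := by group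
        _ = (d * t) * s * (t * d⁻¹) := by rw [hdt', hdinv]
        _ = d * (t * s * t) * d⁻¹ := by group
        _ = d * (r⁻¹ * t * r) * d⁻¹ := by rw [heq]
        _ = (d * r * d⁻¹)⁻¹ * (d * t * d⁻¹) * (d * r * d⁻¹) := by group
        _ = (d * r * d⁻¹)⁻¹ * t * (d * r * d⁻¹) := by
            rw [hdt, mul_assoc t d, mul_inv_cancel, mul_one]
    have hp1 := huniq (d * s * d⁻¹, d * r * d⁻¹)
      ⟨J_conj hS (hDa hd) hs, hS.conj_mem d (hDa hd) r hr, h1⟩
    have h2 : d * s * d⁻¹ = s := congrArg Prod.fst (hp1.trans hp0.symm)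
    exact mul_inv_eq_iff_eq_mul.mp h2
  · intro hds
    have hdinv : d⁻¹ * s * d = s := conj_inv_eq_of_comm hds
    set t' := d * t * d⁻¹ with ht'
    have hda : d⁻¹ • a = a := Subgroup.inv_mem _ hd.1
    have hdb : d • t • a = t • a := hd.2
    have ht'2 : t' * t' = 1 := by
      calc t' * t' = d * (t * t) * d⁻¹ := by rw [ht']; group
        _ = 1 := by rw [hS.mul_self]; group
    have ht'a : t' • a = t • a := by
      rw [ht', mul_smul, mul_smul, hda, hdb]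
    obtain ⟨k, hk, hkt⟩ := exists_K_conj_t hS ht'2 ht'a
    have hkt' : k⁻¹ * t' * k = t := by rw [← hkt]; group
    set ρ := d * r * d⁻¹ with hρ
    have hρQ : ρ ∈ Q := hS.conj_mem d (hDa hd) r hr
    have h1 : t' * s * t' = ρ⁻¹ * t' * ρ := by
      calc t' * s * t' = d * t * (d⁻¹ * s * d) * t * d⁻¹ := by rw [ht']; group
        _ = d * (t * s * t) * d⁻¹ := by rw [hdinv]; group
        _ = d * (r⁻¹ * t * r) * d⁻¹ := by rw [heq]
        _ = ρ⁻¹ * t' * ρ := by rw [hρ, ht']; group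
    have h2 : t * (k⁻¹ * s * k) * t = (k⁻¹ * ρ * k)⁻¹ * t * (k⁻¹ * ρ * k) := by
      calc t * (k⁻¹ * s * k) * t
          = (k⁻¹ * t' * k) * (k⁻¹ * s * k) * (k⁻¹ * t' * k) := by rw [hkt']
        _ = k⁻¹ * (t' * s * t') * k := by group
        _ = k⁻¹ * (ρ⁻¹ * t' * ρ) * k := by rw [h1]
        _ = (k⁻¹ * ρ * k)⁻¹ * (k⁻¹ * t' * k) * (k⁻¹ * ρ * k) := by group
        _ = (k⁻¹ * ρ * k)⁻¹ * t * (k⁻¹ * ρ * k) := by rw [hkt']
    have hkinv : k⁻¹ ∈ stabilizer G a := Subgroup.inv_mem _ hk.1.1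
    have hJ : k⁻¹ * s * k ∈ involutionsIn (stabilizer G a : Set G) := by
      have := J_conj hS hkinv hs
      rwa [inv_inv] at this
    have hQ' : k⁻¹ * ρ * k ∈ Q := by
      have := hS.conj_mem k⁻¹ hkinv ρ hρQ
      rwa [inv_inv] at this
    have hp1 := huniq (k⁻¹ * s * k, k⁻¹ * ρ * k) ⟨hJ, hQ', h2⟩
    have h3 : k⁻¹ * s * k = s := congrArg Prod.fst (hp1.trans hp0.symm)
    have h3' : k * s = s * k := by
      have h8 : k * (k⁻¹ * s * k) = k * s := by rw [h3]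
      rw [← h8]; group
    have h4 : k * s * k⁻¹ = 1 * s * 1⁻¹ := by
      rw [conj_eq_of_comm h3']; group
    have h5 := K_conj_inj hS hs hk (one_mem_K hS) h4
    have h6 : t' = t := by
      rw [← hkt, h5]; group
    have h7 : d * t * d⁻¹ = t := h6
    exact mul_inv_eq_iff_eq_mul.mp h7

/-- `C_D(t) ⊓ C_D(K) = C_D(J)`. -/
lemma inf_centr_K :
    (DD G a t) ⊓ Subgroup.centralizer {t} ⊓ Subgroup.centralizer (invertedBy (DD G a t) t) =
      (DD G a t) ⊓ Subgroup.centralizer (involutionsIn (stabilizer G a : Set G)) := by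
  obtain ⟨⟨s₀, r₀⟩, ⟨hs₀, hr₀, heq⟩, -⟩ := exists_unique_structure hS
  simp only at hs₀ hr₀ heq
  apply le_antisymm
  · rintro d ⟨⟨hd, hdt⟩, hdK⟩
    have hdt : d * t = t * d := Subgroup.mem_centralizer_singleton_iff.mp hdt
    refine ⟨hd, Subgroup.mem_centralizer_iff.mpr ?_⟩
    intro s' hs'
    obtain ⟨k, hk, hks⟩ := exists_K_conj hS hs₀ hs'
    have e1 : Commute d s₀ := (commute_t_iff hS hs₀ hr₀ heq hd).mp hdt
    have e2 : Commute k d := Subgroup.mem_centralizer_iff.mp hdK k hk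
    rw [← hks]
    have e3 : Commute d (k * s₀ * k⁻¹) := ((e2.symm.mul_right e1).mul_right e2.symm.inv_right)
    exact e3.symm
  · rintro d ⟨hd, hdJ⟩
    have hdJ' : ∀ s ∈ involutionsIn (stabilizer G a : Set G), s * d = d * s :=
      fun s hs => Subgroup.mem_centralizer_iff.mp hdJ s hs
    have hdt : d * t = t * d :=
      (commute_t_iff hS hs₀ hr₀ heq hd).mpr (hdJ' s₀ hs₀).symm
    refine ⟨⟨hd, Subgroup.mem_centralizer_singleton_iff.mpr hdt⟩, Subgroup.mem_centralizer_iff.mpr ?_⟩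
    intro k hk
    have hdk : d * k * d⁻¹ ∈ invertedBy (DD G a t) t := by
      refine ⟨Subgroup.mul_mem _ (Subgroup.mul_mem _ hd hk.1) (Subgroup.inv_mem _ hd), ?_⟩
      have e1 : Commute t d := hdt.symm
      have e2 : t * d⁻¹ = d⁻¹ * t := e1.inv_right
      have e3 : t * k * t⁻¹ = k⁻¹ := hk.2
      calc t * (d * k * d⁻¹) * t⁻¹ = (t * d) * k * (d⁻¹ * t⁻¹) := by group
        _ = d * (t * k * t⁻¹) * d⁻¹ := by
            have e4 : d⁻¹ * t⁻¹ = t⁻¹ * d⁻¹ := by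
              rw [← mul_inv_rev, ← mul_inv_rev, hdt]
            rw [e1.eq, e4]; group
        _ = d * k⁻¹ * d⁻¹ := by rw [e3]
        _ = (d * k * d⁻¹)⁻¹ := by group
    have hJ := J_conj hS hk.1.1 hs₀
    have h1 : (d * k * d⁻¹) * s₀ * (d * k * d⁻¹)⁻¹ = k * s₀ * k⁻¹ := by
      have e1 : d⁻¹ * s₀ * d = s₀ := conj_inv_eq_of_comm (hdJ' s₀ hs₀).symm
      have e2 : d * (k * s₀ * k⁻¹) * d⁻¹ = k * s₀ * k⁻¹ := conj_eq_of_comm (hdJ' _ hJ).symm
      calc (d * k * d⁻¹) * s₀ * (d * k * d⁻¹)⁻¹ = d * k * (d⁻¹ * s₀ * d) * k⁻¹ * d⁻¹ := by group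
        _ = d * (k * s₀ * k⁻¹) * d⁻¹ := by rw [e1]; group
        _ = k * s₀ * k⁻¹ := e2
    have h2 := K_conj_inj hS hs₀ hdk hk h1
    have h3 := mul_inv_eq_iff_eq_mul.mp h2
    exact h3.symm

/-- Subsets of `V = C_D(t)` conjugate in `G` are conjugate in `V`. -/
lemma conj_in_V {X : Set G}
    (hX : X ⊆ (((DD G a t) ⊓ Subgroup.centralizer {t} : Subgroup G) : Set G)) (g : G)
    (hY : (fun x => g * x * g⁻¹) '' X ⊆ (((DD G a t) ⊓ Subgroup.centralizer {t} : Subgroup G) : Set G)) :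
    ∃ v ∈ (DD G a t) ⊓ Subgroup.centralizer {t},
      (fun x => v * x * v⁻¹) '' X = (fun x => g * x * g⁻¹) '' X := by
  have hX' : X ⊆ (DD G a t : Set G) := fun x hx => (hX hx).1
  obtain ⟨e, he, -⟩ := invol_fix hS hS.ne_one hS.mul_self
  have hea : e ≠ a := by
    rintro rfl
    exact t_ne hS he
  have heb : e ≠ t • a := by
    intro h
    have h1 : t • (t • a) = t • a := by rw [← h]; exact h ▸ he
    rw [t_t hS] at h1
    exact t_ne hS h1.symm
  have hXt : ∀ x ∈ X, x * t = t * x := fun x hx =>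
    Subgroup.mem_centralizer_singleton_iff.mp (hX hx).2
  have hXa : ∀ x ∈ X, x • a = a := fun x hx => (hX' hx).1
  have hXb : ∀ x ∈ X, x • t • a = t • a := fun x hx => (hX' hx).2
  have hXe : ∀ x ∈ X, x • e = e := fun x hx =>
    fix_of_commute hS hS.ne_one hS.mul_self (hXt x hx) he
  have h3 : ∃ b c d : Ω, b ≠ c ∧ b ≠ d ∧ c ≠ d ∧ ∀ x ∈ X, x • b = b ∧ x • c = c ∧ x • d = d :=
    ⟨a, t • a, e, Ne.symm (t_ne hS), Ne.symm hea, Ne.symm heb,
      fun x hx => ⟨hXa x hx, hXb x hx, hXe x hx⟩⟩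
  -- `g⁻¹ a, g⁻¹ b` are fixed by `X`
  have hYD : ∀ x ∈ X, g * x * g⁻¹ ∈ (DD G a t) ⊓ Subgroup.centralizer {t} := fun x hx =>
    hY ⟨x, hx, rfl⟩
  have hfixg : ∀ c : Ω, (∀ x ∈ X, (g * x * g⁻¹) • c = c) → ∀ x ∈ X, x • g⁻¹ • c = g⁻¹ • c := by
    intro c hc x hx
    have h1 := hc x hx
    rw [mul_smul, mul_smul, smul_eq_iff_eq_inv_smul] at h1
    exact h1
  have hb₁ : ∀ x ∈ X, x • g⁻¹ • a = g⁻¹ • a := hfixg a (fun x hx => (hYD x hx).1.1)
  have hb₂ : ∀ x ∈ X, x • g⁻¹ • t • a = g⁻¹ • t • a := hfixg (t • a) (fun x hx => (hYD x hx).1.2)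
  have hne : g⁻¹ • a ≠ g⁻¹ • t • a := fun h => t_ne hS (smul_left_cancel _ h).symm
  obtain ⟨c, hc, hca, hcb⟩ := two_trans_centr hS hX' h3
    (b₁ := g⁻¹ • a) (b₂ := g⁻¹ • t • a) (c₁ := a) (c₂ := t • a)
    (fun x hx => ⟨hb₁ x hx, hb₂ x hx, hXa x hx, hXb x hx⟩) hne (Ne.symm (t_ne hS))
  set d := g * c⁻¹ with hd
  have hdcomm : ∀ x ∈ X, d * x * d⁻¹ = g * x * g⁻¹ := by
    intro x hx
    have e1 : x * c = c * x := Subgroup.mem_centralizer_iff.mp hc x hx
    have e2 : c⁻¹ * x * c = x := conj_inv_eq_of_comm e1.symm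
    calc d * x * d⁻¹ = g * (c⁻¹ * x * c) * g⁻¹ := by rw [hd]; group
      _ = g * x * g⁻¹ := by rw [e2]
  have hdD : d ∈ DD G a t := by
    constructor
    · show (g * c⁻¹) • a = a
      have : c⁻¹ • a = g⁻¹ • a := by rw [inv_smul_eq_iff, hca]
      rw [mul_smul, this, smul_inv_smul]
    · show (g * c⁻¹) • t • a = t • a
      have : c⁻¹ • t • a = g⁻¹ • t • a := by rw [inv_smul_eq_iff, hcb]
      rw [mul_smul, this, smul_inv_smul]
  set t' := d * t * d⁻¹ with ht'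
  have ht'2 : t' * t' = 1 := by
    calc t' * t' = d * (t * t) * d⁻¹ := by rw [ht']; group
      _ = 1 := by rw [hS.mul_self]; group
  have hdinva : d⁻¹ • a = a := Subgroup.inv_mem _ hdD.1
  have hdb : d • t • a = t • a := hdD.2
  have ht'a : t' • a = t • a := by
    rw [ht', mul_smul, mul_smul, hdinva, hdb]
  obtain ⟨k, hk, hkt⟩ := exists_K_conj_t hS ht'2 ht'a
  have hk2 : t' * t = k * k := by
    have e1 : t * k⁻¹ * t = k := by
      have e2 := hk.2
      rw [t_inv hS] at e2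
      calc t * k⁻¹ * t = (t * k * t)⁻¹ := by
            rw [mul_inv_rev, mul_inv_rev, t_inv hS]; group
        _ = k := by rw [e2, inv_inv]
    rw [← hkt]
    calc k * t * k⁻¹ * t = k * (t * k⁻¹ * t) := by group
      _ = k * k := by rw [e1]
  -- `k` commutes with the image of `X`
  have hky : ∀ x ∈ X, Commute (g * x * g⁻¹) k := by
    intro x hx
    have hy := hYD x hx
    have hyt : (g * x * g⁻¹) * t = t * (g * x * g⁻¹) :=
      Subgroup.mem_centralizer_singleton_iff.mp hy.2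
    have hyt' : (g * x * g⁻¹) * t' = t' * (g * x * g⁻¹) := by
      rw [← hdcomm x hx, ht']
      calc d * x * d⁻¹ * (d * t * d⁻¹) = d * (x * t) * d⁻¹ := by group
        _ = d * (t * x) * d⁻¹ := by rw [hXt x hx]
        _ = d * t * d⁻¹ * (d * x * d⁻¹) := by group
    have e1 : Commute (g * x * g⁻¹) t := hyt
    have e2 : Commute (g * x * g⁻¹) t' := hyt'
    have e3 : Commute (g * x * g⁻¹) (k * k) := by
      rw [← hk2]
      exact e2.mul_right e1
    obtain ⟨l, hl⟩ := D_odd_order hS hk.1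
    have e4 : k = (k * k) ^ (l + 1) := by
      rw [← pow_two, ← pow_mul]
      have e5 : k ^ (2 * l + 1) = 1 := by rw [← hl]; exact pow_orderOf_eq_one k
      have e6 : 2 * (l + 1) = (2 * l + 1) + 1 := by ring
      rw [e6, pow_succ, e5, one_mul]
    rw [e4]
    exact e3.pow_right _
  refine ⟨k⁻¹ * d, ⟨Subgroup.mul_mem _ (Subgroup.inv_mem _ hk.1) hdD, ?_⟩, ?_⟩
  · apply Subgroup.mem_centralizer_singleton_iff.mpr
    have e1 : k⁻¹ * t' * k = t := by rw [← hkt]; group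
    calc k⁻¹ * d * t = k⁻¹ * (d * t * d⁻¹) * d := by group
      _ = k⁻¹ * t' * k * (k⁻¹ * d) := by rw [ht']; group
      _ = t * (k⁻¹ * d) := by rw [e1]
  · apply Set.image_congr
    intro x hx
    show k⁻¹ * d * x * (k⁻¹ * d)⁻¹ = g * x * g⁻¹
    have e1 := hdcomm x hx
    have e2 : k⁻¹ * (g * x * g⁻¹) * k = g * x * g⁻¹ := conj_inv_eq_of_comm (hky x hx).eq.symm
    calc k⁻¹ * d * x * (k⁻¹ * d)⁻¹ = k⁻¹ * (d * x * d⁻¹) * k := by group
      _ = k⁻¹ * (g * x * g⁻¹) * k := by rw [e1]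
      _ = g * x * g⁻¹ := e2

end Setup

end Cfsg.Agent.Lib.RankOne
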