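import Cfsg.Agent.Lib.RankOne.Inv

/-! # The split rank-one set-up: subsets of the two-point stabiliser fixing three points -/

set_option linter.style.haveILetI false
set_option linter.unusedSectionVars false

namespace Cfsg.Agent.Lib.RankOne

open MulAction Cfsg

variable {G Ω : Type*} [Group G] [Finite G] [MulAction G Ω] {a : Ω} {t : G} {Q : Subgroup G}

namespace Setup

variable (hS : IsRankOneSetup G Ω a t Q)
include hS

lemma centr_Q {X : Set G} (hX : X ⊆ (DD G a t : Set G)) {c : Ω} (hcX : ∀ x ∈ X, x • c = c)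
    (hc : c ≠ a) : ∃ r ∈ Q, r • (t • a) = c ∧ ∀ x ∈ X, x * r = r * x := by
  obtain ⟨r, hr, hrb⟩ := Q_trans hS hc
  refine ⟨r, hr, hrb, ?_⟩
  intro x hx
  have hxD := hX hx
  have hxa : x ∈ stabilizer G a := hxD.1
  have hxb : x • t • a = t • a := hxD.2
  have hxinv : x⁻¹ • t • a = t • a := by
    rw [inv_smul_eq_iff, hxb]
  have h1 : (x * r * x⁻¹) • t • a = r • t • a := by
    rw [mul_smul, mul_smul, hxinv, hrb, hcX x hx]
  have h2 := Q_unique hS (hS.conj_mem x hxa r hr) hr (t_ne hS) h1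
  exact mul_inv_eq_iff_eq_mul.mp h2

lemma centr_Q' {X : Set G} (hX : X ⊆ (DD G a t : Set G)) {c : Ω} (hcX : ∀ x ∈ X, x • c = c)
    (hc : c ≠ t • a) : ∃ r : G, r • a = c ∧ r • (t • a) = t • a ∧ ∀ x ∈ X, x * r = r * x := by
  have hS' := conj_t hS
  have hX' : X ⊆ (DD G (t • a) t : Set G) := by
    intro x hx
    have hxD := hX hx
    refine ⟨hxD.2, ?_⟩
    show x • t • t • a = t • t • a
    rw [t_t hS]
    exact hxD.1
  obtain ⟨r, hr, hrb, hcomm⟩ := centr_Q hS' hX' hcX hc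
  refine ⟨r, ?_, hS'.le hr, hcomm⟩
  rw [t_t hS] at hrb
  exact hrb

lemma exists_third {X : Set G} (h3 : ∃ b c d : Ω, b ≠ c ∧ b ≠ d ∧ c ≠ d ∧ ∀ x ∈ X, x • b = b ∧ x • c = c ∧ x • d = d) :
    ∃ c : Ω, (∀ x ∈ X, x • c = c) ∧ c ≠ a ∧ c ≠ t • a := by
  obtain ⟨b, c, d, hbc, hbd, hcd, h⟩ := h3
  by_cases h1 : b ≠ a ∧ b ≠ t • a
  · exact ⟨b, fun x hx => (h x hx).1, h1.1, h1.2⟩
  by_cases h2 : c ≠ a ∧ c ≠ t • a
  · exact ⟨c, fun x hx => (h x hx).2.1, h2.1, h2.2⟩
  refine ⟨d, fun x hx => (h x hx).2.2, ?_, ?_⟩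
  · rintro rfl
    have hb : b = t • d := by
      by_contra hne
      exact h1 ⟨hbd, hne⟩
    have hc : c = t • d := by
      by_contra hne
      exact h2 ⟨hcd, hne⟩
    exact hbc (hb.trans hc.symm)
  · intro hd
    have hb : b = a := by
      by_contra hne
      exact h1 ⟨hne, fun h => hbd (h.trans hd.symm)⟩
    have hc : c = a := by
      by_contra hne
      exact h2 ⟨hne, fun h => hcd (h.trans hd.symm)⟩
    exact hbc (hb.trans hc.symm)

section Fix

variable {X : Set G} (hX : X ⊆ (DD G a t : Set G))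
  (h3 : ∃ b c d : Ω, b ≠ c ∧ b ≠ d ∧ c ≠ d ∧ ∀ x ∈ X, x • b = b ∧ x • c = c ∧ x • d = d)
include hX h3

/-- `C(X)` moves any fixed point of `X` to `a`. -/
lemma to_a {c : Ω} (hc : ∀ x ∈ X, x • c = c) :
    ∃ h ∈ Subgroup.centralizer X, h • c = a := by
  by_cases hca : c = a
  · exact ⟨1, Subgroup.one_mem _, by rw [one_smul, hca]⟩
  by_cases hcb : c = t • a
  · obtain ⟨d, hd, hda, hdb⟩ := exists_third hS h3
    obtain ⟨r, -, hr, hrc⟩ := centr_Q hS hX hd hda
    obtain ⟨r', hr', -, hrc'⟩ := centr_Q' hS hX hd hdb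
    refine ⟨r'⁻¹ * r, ?_, ?_⟩
    · rw [Subgroup.mem_centralizer_iff]
      intro x hx
      have h1 : Commute x r := hrc x hx
      have h2 : Commute x r' := hrc' x hx
      exact (h2.inv_right.mul_right h1)
    · rw [hcb, mul_smul, hr, inv_smul_eq_iff, hr']
  · obtain ⟨r', hr', -, hrc'⟩ := centr_Q' hS hX hc hcb
    refine ⟨r'⁻¹, ?_, ?_⟩
    · rw [Subgroup.mem_centralizer_iff]
      intro x hx
      have h2 : Commute x r' := hrc' x hx
      exact h2.inv_right
    · rw [inv_smul_eq_iff, hr']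

/-- `C(X)` is doubly transitive on the fixed points of `X`. -/
lemma two_trans_centr {b₁ b₂ c₁ c₂ : Ω}
    (hfix : ∀ x ∈ X, x • b₁ = b₁ ∧ x • b₂ = b₂ ∧ x • c₁ = c₁ ∧ x • c₂ = c₂)
    (hb : b₁ ≠ b₂) (hc : c₁ ≠ c₂) :
    ∃ g ∈ Subgroup.centralizer X, g • b₁ = c₁ ∧ g • b₂ = c₂ := by
  obtain ⟨h₁, hh₁, hb₁⟩ := to_a hS hX h3 (c := b₁) (fun x hx => (hfix x hx).1)
  obtain ⟨h₂, hh₂, hc₁⟩ := to_a hS hX h3 (c := c₁) (fun x hx => (hfix x hx).2.2.1)
  have hmem₁ := Subgroup.mem_centralizer_iff.mp hh₁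
  have hmem₂ := Subgroup.mem_centralizer_iff.mp hh₂
  have hp : ∀ (h : G) (c : Ω), h ∈ Subgroup.centralizer X → (∀ x ∈ X, x • c = c) → ∀ x ∈ X, x • h • c = h • c := by
    intro h c hh hc x hx
    rw [← mul_smul, Subgroup.mem_centralizer_iff.mp hh x hx, mul_smul, hc x hx]
  have hb' : h₁ • b₂ ≠ a := by
    intro h
    apply hb
    apply smul_left_cancel h₁
    rw [hb₁, h]
  have hc' : h₂ • c₂ ≠ a := by
    intro h
    apply hc
    apply smul_left_cancel h₂
    rw [hc₁, h]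
  obtain ⟨r₁, hr₁, hr₁b, hr₁c⟩ := centr_Q hS hX (hp h₁ b₂ hh₁ (fun x hx => (hfix x hx).2.1)) hb'
  obtain ⟨r₂, hr₂, hr₂b, hr₂c⟩ := centr_Q hS hX (hp h₂ c₂ hh₂ (fun x hx => (hfix x hx).2.2.2)) hc'
  refine ⟨h₂⁻¹ * (r₂ * r₁⁻¹) * h₁, ?_, ?_, ?_⟩
  · rw [Subgroup.mem_centralizer_iff]
    intro x hx
    have e1 : Commute x h₁ := hmem₁ x hx
    have e2 : Commute x h₂ := hmem₂ x hx
    have e3 : Commute x r₁ := hr₁c x hx
    have e4 : Commute x r₂ := hr₂c x hx
    exact (e2.inv_right.mul_right (e4.mul_right e3.inv_right)).mul_right e1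
  · rw [mul_smul, mul_smul, mul_smul, hb₁, Q_smul_a hS (Q.inv_mem hr₁), Q_smul_a hS hr₂, inv_smul_eq_iff, hc₁]
  · rw [mul_smul, mul_smul, mul_smul, inv_smul_eq_iff, ← hr₁b, inv_smul_smul, hr₂b]

/-- `C_Q(X)` has an involution. -/
lemma exists_invol_centr :
    ∃ u ∈ Subgroup.centralizer X ⊓ Q, u ≠ 1 ∧ u * u = 1 := by
  classical
  haveI hfin : Finite Ω := finite_Ω hS
  haveI : Fact (Nat.Prime 2) := ⟨Nat.prime_two⟩
  -- First case: `C_Q(X)` has even order.
  by_cases hev : Even (Nat.card ↥(Subgroup.centralizer X ⊓ Q))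
  · obtain ⟨x, hx⟩ := exists_prime_orderOf_dvd_card' (G := ↥(Subgroup.centralizer X ⊓ Q)) 2 hev.two_dvd
    refine ⟨x, x.2, ?_, ?_⟩
    · intro h
      have : x = 1 := Subtype.ext h
      rw [this, orderOf_one] at hx
      omega
    · have h2 : x ^ 2 = 1 := by rw [← hx]; exact pow_orderOf_eq_one x
      rw [pow_two] at h2
      exact congrArg Subtype.val h2
  -- Otherwise `|Fix(X)|` is even so that `C(X)` has even order.
  set C := Subgroup.centralizer X with hC
  set N := C ⊓ Q with hN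
  have hXa : ∀ x ∈ X, x • a = a := fun x hx => (hX hx).1
  have horb : orbit C a = {c : Ω | ∀ x ∈ X, x • c = c} := by
    ext c
    constructor
    · rintro ⟨⟨g, hg⟩, rfl⟩ x hx
      show x • g • a = g • a
      rw [← mul_smul, Subgroup.mem_centralizer_iff.mp hg x hx, mul_smul, hXa x hx]
    · intro hc
      obtain ⟨h, hh, hca⟩ := to_a hS hX h3 hc
      refine ⟨⟨h⁻¹, Subgroup.inv_mem _ hh⟩, ?_⟩
      show h⁻¹ • a = c
      rw [inv_smul_eq_iff, hca]
  -- the number of fixed points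
  have hcardN : Nat.card N = Nat.card {c : Ω // (∀ x ∈ X, x • c = c) ∧ c ≠ a} := by
    let φ : N → {c : Ω // (∀ x ∈ X, x • c = c) ∧ c ≠ a} := fun r => ⟨(r : G) • t • a, by
      refine ⟨fun x hx => ?_, fun h => ?_⟩
      · rw [← mul_smul, Subgroup.mem_centralizer_iff.mp r.2.1 x hx, mul_smul]
        have : x • t • a = t • a := (hX hx).2
        rw [this]
      · have h1 : (r : G) • a = a := hS.le r.2.2
        exact t_ne hS (smul_left_cancel _ (h.trans h1.symm))⟩
    have hinj : Function.Injective φ := by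
      rintro ⟨x, hx⟩ ⟨y, hy⟩ h
      exact Subtype.ext (Q_unique hS hx.2 hy.2 (t_ne hS) (congrArg Subtype.val h))
    have hsurj : Function.Surjective φ := by
      rintro ⟨c, hc, hca⟩
      obtain ⟨r, hr, hrb, hrc⟩ := centr_Q hS hX hc hca
      exact ⟨⟨r, Subgroup.mem_centralizer_iff.mpr hrc, hr⟩, Subtype.ext hrb⟩
    exact Nat.card_congr (Equiv.ofBijective φ ⟨hinj, hsurj⟩)
  have hcardF : Nat.card (orbit C a) = Nat.card N + 1 := by
    haveI := Fintype.ofFinite Ω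
    rw [hcardN, horb]
    have e1 : Nat.card {c : Ω | ∀ x ∈ X, x • c = c} =
        (Finset.univ.filter (fun c : Ω => ∀ x ∈ X, x • c = c)).card := by
      rw [Nat.card_eq_fintype_card, Fintype.card_subtype]
      rfl
    have e2 : Nat.card {c : Ω // (∀ x ∈ X, x • c = c) ∧ c ≠ a} =
        ((Finset.univ.filter (fun c : Ω => ∀ x ∈ X, x • c = c)).erase a).card := by
      rw [Nat.card_eq_fintype_card, Fintype.card_subtype]
      congr 1
      ext c
      simp only [Finset.mem_filter, Finset.mem_univ, true_and, Finset.mem_erase]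
      tauto
    rw [e1, e2, Finset.card_erase_of_mem (by simp only [Finset.mem_filter, Finset.mem_univ, true_and]; exact hXa)]
    have : 0 < (Finset.univ.filter (fun c : Ω => ∀ x ∈ X, x • c = c)).card :=
      Finset.card_pos.mpr ⟨a, by simp only [Finset.mem_filter, Finset.mem_univ, true_and]; exact hXa⟩
    omega
  have hodd : Odd (Nat.card N) := Nat.not_even_iff_odd.mp hev
  have hevF : 2 ∣ Nat.card (orbit C a) := by
    rw [hcardF]
    exact hodd.add_one.two_dvd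
  have hdvd : Nat.card (orbit C a) ∣ Nat.card C := by
    have h1 : (stabilizer C a).index = Nat.card (orbit C a) := by
      rw [index_stabilizer, Nat.card_coe_set_eq]
    rw [← h1]
    exact Subgroup.index_dvd_card _
  obtain ⟨u, hu⟩ := exists_prime_orderOf_dvd_card' (G := C) 2 (hevF.trans hdvd)
  have hu1 : (u : G) ≠ 1 := by
    intro h
    have : u = 1 := Subtype.ext h
    rw [this, orderOf_one] at hu
    omega
  have hu2 : (u : G) * u = 1 := by
    have h2 : u ^ 2 = 1 := by rw [← hu]; exact pow_orderOf_eq_one u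
    rw [pow_two] at h2
    exact congrArg Subtype.val h2
  obtain ⟨e, he, -⟩ := invol_fix hS hu1 hu2
  have heX : ∀ x ∈ X, x • e = e := by
    intro x hx
    exact fix_of_commute hS hu1 hu2 (Subgroup.mem_centralizer_iff.mp u.2 x hx) he
  obtain ⟨h, hh, hea⟩ := to_a hS hX h3 heX
  have hu'a : (h * u * h⁻¹) • a = a := by
    rw [mul_smul, mul_smul, ← hea, inv_smul_smul, he]
  have hu'2 : (h * u * h⁻¹) * (h * u * h⁻¹) = 1 := by
    calc (h * u * h⁻¹) * (h * u * h⁻¹) = h * ((u : G) * u) * h⁻¹ := by group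
      _ = 1 := by rw [hu2]; group
  have hu'1 : h * (u : G) * h⁻¹ ≠ 1 := by
    intro h1
    apply hu1
    have : (u : G) = h⁻¹ * (h * u * h⁻¹) * h := by group
    rw [this, h1]
    group
  refine ⟨h * u * h⁻¹, ⟨Subgroup.mul_mem _ (Subgroup.mul_mem _ hh u.2) (Subgroup.inv_mem _ hh),
    mem_Q_of_invol hS hu'a hu'2⟩, hu'1, hu'2⟩

lemma even_centr : Even (Nat.card ↥(Subgroup.centralizer X ⊓ Q)) := by
  obtain ⟨u, hu, hu1, hu2⟩ := exists_invol_centr hS hX h3
  have h1 : orderOf u = 2 := orderOf_eq_prime (by rw [pow_two, hu2]) hu1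
  rw [even_iff_two_dvd, ← h1]
  exact Subgroup.orderOf_dvd_natCard _ hu

/-- An involution swapping `a, t • a` and commuting with `X`. -/
lemma exists_swap_centr :
    ∃ w : G, w * w = 1 ∧ w • a = t • a ∧ ∀ x ∈ X, x * w = w * x := by
  obtain ⟨u, hu, hu1, hu2⟩ := exists_invol_centr hS hX h3
  have hXb : ∀ x ∈ X, x • t • a = t • a := fun x hx => (hX hx).2
  have hXa : ∀ x ∈ X, x • a = a := fun x hx => (hX hx).1
  obtain ⟨h, hh, hba⟩ := to_a hS hX h3 hXb
  have hab : h⁻¹ • a = t • a := by rw [inv_smul_eq_iff, hba]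
  set v := h⁻¹ * u * h with hv
  have hv1 : v ≠ 1 := by
    intro h1
    apply hu1
    have : u = h * v * h⁻¹ := by rw [hv]; group
    rw [this, h1]; group
  have hv2 : v * v = 1 := by
    calc v * v = h⁻¹ * (u * u) * h := by rw [hv]; group
      _ = 1 := by rw [hu2]; group
  have hua : u • a = a := hS.le hu.2
  have hvb : v • t • a = t • a := by
    rw [hv, mul_smul, mul_smul, hba, hua, hab]
  obtain ⟨w, ⟨hw, hwa, hws⟩, huniq⟩ := exists_unique_swap hS hua hu1 hu2 hvb hv1 hv2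
  refine ⟨w, hw, hwa, ?_⟩
  intro x hx
  have hxu : x * u = u * x := Subgroup.mem_centralizer_iff.mp hu.1 x hx
  have hxh : x * h = h * x := Subgroup.mem_centralizer_iff.mp hh x hx
  have hxv : x * v = v * x := by
    have e1 : Commute x h := hxh
    have e2 : Commute x u := hxu
    exact (e1.inv_right.mul_right e2).mul_right e1
  have hw' : x * w * x⁻¹ = w := by
    apply huniq
    refine ⟨?_, ?_, ?_⟩
    · calc x * w * x⁻¹ * (x * w * x⁻¹) = x * (w * w) * x⁻¹ := by group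
        _ = 1 := by rw [hw]; group
    · have hxinv : x⁻¹ • a = a := by rw [inv_smul_eq_iff, hXa x hx]
      rw [mul_smul, mul_smul, hxinv, hwa, hXb x hx]
    · have e1 : x⁻¹ * u * x = u := by
        rw [mul_assoc, ← hxu]; group
      calc x * w * x⁻¹ * u * (x * w * x⁻¹) = x * w * (x⁻¹ * u * x) * w * x⁻¹ := by group
        _ = x * (w * u * w) * x⁻¹ := by rw [e1]; group
        _ = x * v * x⁻¹ := by rw [hws]
        _ = v := by rw [hxv]; group
  exact mul_inv_eq_iff_eq_mul.mp hw'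

end Fix

/-- Subsets of `D` fixing three points are `D`-conjugate into `C_D(t)`. -/
lemma exists_conj_into_V {X : Set G} (hX : X ⊆ (DD G a t : Set G))
    (h3 : ∃ b c d : Ω, b ≠ c ∧ b ≠ d ∧ c ≠ d ∧ ∀ x ∈ X, x • b = b ∧ x • c = c ∧ x • d = d) :
    ∃ k ∈ DD G a t, ∀ x ∈ X, (k * x * k⁻¹) * t = t * (k * x * k⁻¹) := by
  obtain ⟨w, hw, hwa, hwc⟩ := exists_swap_centr hS hX h3
  obtain ⟨k, hk, hkw⟩ := exists_K_conj_t hS hw hwa
  refine ⟨k⁻¹, Subgroup.inv_mem _ hk.1, ?_⟩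
  intro x hx
  have h1 : x * (k * t * k⁻¹) = (k * t * k⁻¹) * x := by rw [hkw]; exact hwc x hx
  calc k⁻¹ * x * k⁻¹⁻¹ * t = k⁻¹ * (x * (k * t * k⁻¹)) * k := by group
    _ = k⁻¹ * ((k * t * k⁻¹) * x) * k := by rw [h1]
    _ = t * (k⁻¹ * x * k⁻¹⁻¹) := by group

/-- A non-identity element of `K` centralises no non-identity element of `Q`. -/
lemma K_fpf {k : G} (hk : k ∈ invertedBy (DD G a t) t) (hk1 : k ≠ 1) :
    Q ⊓ Subgroup.centralizer {k} = ⊥ := by
  rw [eq_bot_iff]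
  rintro r ⟨hr, hrk⟩
  by_contra hr1
  have hr1' : r ≠ 1 := hr1
  have hrk' : r * k = k * r := Subgroup.mem_centralizer_singleton_iff.mp hrk
  have hkD := hk.1
  have hka : k • a = a := hkD.1
  have hkb : k • t • a = t • a := hkD.2
  have hX : ({k} : Set G) ⊆ (DD G a t : Set G) := by
    rintro _ rfl
    exact hkD
  have h3 : ∃ b c d : Ω, b ≠ c ∧ b ≠ d ∧ c ≠ d ∧ ∀ x ∈ ({k} : Set G), x • b = b ∧ x • c = c ∧ x • d = d := by
    refine ⟨a, t • a, r • t • a, Ne.symm (t_ne hS), ?_, ?_, ?_⟩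
    · intro h
      have h1 : r • a = a := hS.le hr
      exact t_ne hS (smul_left_cancel r (h.symm.trans h1.symm))
    · intro h
      exact hr1' (Q_bot hS hr h.symm)
    · rintro _ rfl
      refine ⟨hka, hkb, ?_⟩
      rw [← mul_smul, ← hrk', mul_smul, hkb]
  obtain ⟨w, hw, hwa, hwc⟩ := exists_swap_centr hS hX h3
  have hwk : k * w = w * k := hwc k rfl
  have hk₁ := K_of_swap hS hw hwa
  set k₁ := t * w with hk₁def
  have h1 : k₁ * k * k₁⁻¹ = k⁻¹ := by
    have e1 : t * k * t = k⁻¹ := by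
      have := hk.2
      rwa [t_inv hS] at this
    rw [hk₁def, mul_inv_rev, inv_eq_of_mul_eq_one_left hw, t_inv hS]
    calc t * w * k * (w * t) = t * (w * k) * (w * t) := by group
      _ = t * (k * w) * (w * t) := by rw [hwk]
      _ = t * k * (w * w) * t := by group
      _ = k⁻¹ := by rw [hw, mul_one, e1]
  have h2 := commute_of_conj_inv (D_odd_order hS hk₁.1) h1
  have h3' : k = k⁻¹ := by
    rw [← h1, h2]
    group
  have h4 : k * k = 1 := by
    calc k * k = k * k⁻¹ := by rw [← h3']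
      _ = 1 := mul_inv_cancel k
  exact hk1 (D_sq_eq_one hS hkD h4)

end Setup

end Cfsg.Agent.Lib.RankOne
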