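import Cfsg.Agent.Lib.RankOne.Centr

/-! # The split rank-one set-up: the canonical form -/

set_option linter.style.haveILetI false
set_option linter.unusedSectionVars false

namespace Cfsg.Agent.Lib.RankOne

open MulAction Cfsg

variable {G Ω : Type*} [Group G] [Finite G] [MulAction G Ω] {a : Ω} {t : G} {Q : Subgroup G}

namespace Setup

variable (hS : IsRankOneSetup G Ω a t Q)
include hS

/-- Uniqueness of the canonical form `g h t f`. -/
lemma form_unique {g h f g' h' f' : G} (hg : g ∈ Q) (hh : h ∈ DD G a t) (hf : f ∈ Q)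
    (hg' : g' ∈ Q) (hh' : h' ∈ DD G a t) (hf' : f' ∈ Q)
    (e : g * h * t * f = g' * h' * t * f') : g = g' ∧ h = h' ∧ f = f' := by
  have htinv := t_inv hS
  have key : ∀ {g h f : G}, g ∈ Q → h ∈ DD G a t → f ∈ Q → (g * h * t * f)⁻¹ • a = f⁻¹ • t • a := by
    intro g h f hg hh hf
    have h1 : g⁻¹ • a = a := Q_smul_a hS (Q.inv_mem hg)
    have h2 : h⁻¹ • a = a := Subgroup.inv_mem _ hh.1
    rw [mul_inv_rev, mul_inv_rev, mul_inv_rev, mul_smul, mul_smul, mul_smul, h1, h2, htinv]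
  have h1 : f⁻¹ • t • a = f'⁻¹ • t • a := by
    rw [← key hg hh hf, ← key hg' hh' hf', e]
  have h2 : f⁻¹ = f'⁻¹ := Q_unique hS (Q.inv_mem hf) (Q.inv_mem hf') (t_ne hS) h1
  have hff : f = f' := inv_injective h2
  subst hff
  have h3 : g * h = g' * h' := by
    have e2 : g * h * t = g' * h' * t := mul_right_cancel e
    exact mul_right_cancel e2
  have h4 : g'⁻¹ * g = h' * h⁻¹ := by
    calc g'⁻¹ * g = g'⁻¹ * (g * h) * h⁻¹ := by group
      _ = g'⁻¹ * (g' * h') * h⁻¹ := by rw [h3]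
      _ = h' * h⁻¹ := by group
  have h5 : g'⁻¹ * g ∈ Q ⊓ DD G a t :=
    ⟨Q.mul_mem (Q.inv_mem hg') hg, by rw [h4]; exact Subgroup.mul_mem _ hh' (Subgroup.inv_mem _ hh)⟩
  rw [inf_Q_D hS] at h5
  have h6 : g = g' := (inv_mul_eq_one.mp h5).symm
  subst h6
  exact ⟨rfl, mul_left_cancel h3, rfl⟩

lemma t_conj_D {c : G} (hc : c ∈ DD G a t) : t * c * t ∈ DD G a t := by
  refine ⟨?_, ?_⟩
  · show (t * c * t) • a = a
    have h1 : c • t • a = t • a := hc.2
    rw [mul_smul, mul_smul, h1, t_t hS]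
  · show (t * c * t) • t • a = t • a
    have h1 : c • a = a := hc.1
    rw [mul_smul, mul_smul, t_t hS, h1]

lemma t_conj_not_stab {x : G} (hx : x ∈ Q) (hx1 : x ≠ 1) : (t * x * t) • a ≠ a := by
  intro h
  rw [mul_smul, mul_smul, smul_eq_iff_eq_inv_smul, t_inv hS] at h
  exact hx1 (Q_bot hS hx h)

end Setup

end Cfsg.Agent.Lib.RankOne
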