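import Cfsg.Agent.Lib.RankOne.Basic

/-! # The split rank-one set-up: the elements inverted by `t` -/

set_option linter.style.haveILetI false
set_option linter.unusedSectionVars false

namespace Cfsg.Agent.Lib.RankOne

open MulAction Cfsg

variable {G Ω : Type*} [Group G] [Finite G] [MulAction G Ω] {a : Ω} {t : G} {Q : Subgroup G}

namespace Setup

variable (hS : IsRankOneSetup G Ω a t Q)
include hS

lemma t_mul_K {k : G} (hk : k ∈ invertedBy (DD G a t) t) :
    (t * k) * (t * k) = 1 ∧ (t * k) • a = t • a := by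
  obtain ⟨hkD, hk2⟩ := hk
  rw [t_inv hS] at hk2
  constructor
  · calc t * k * (t * k) = (t * k * t) * k := by group
      _ = 1 := by rw [hk2]; group
  · rw [mul_smul]
    congr 1
    exact hkD.1

lemma K_of_swap {w : G} (hw : w * w = 1) (hwa : w • a = t • a) :
    t * w ∈ invertedBy (DD G a t) t := by
  have hwb : w • t • a = a := by rw [← hwa, ← mul_smul, hw, one_smul]
  refine ⟨⟨?_, ?_⟩, ?_⟩
  · show (t * w) • a = a
    rw [mul_smul, hwa, t_t hS]
  · show (t * w) • t • a = t • a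
    rw [mul_smul, hwb]
  · rw [t_inv hS, mul_inv_rev, inv_eq_of_mul_eq_one_left hw, t_inv hS]
    calc t * (t * w) * t = (t * t) * w * t := by group
      _ = w * t := by rw [hS.mul_self, one_mul]

lemma mem_J {s : G} : s ∈ involutionsIn (stabilizer G a : Set G) ↔ s • a = a ∧ s ≠ 1 ∧ s * s = 1 :=
  Iff.rfl

lemma t_conj_invol {s : G} (h1 : s ≠ 1) (h2 : s * s = 1) :
    t * s * t ≠ 1 ∧ (t * s * t) * (t * s * t) = 1 := by
  constructor
  · intro h
    apply h1
    have : s = t * (t * s * t) * t := by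
      calc s = (t * t) * s * (t * t) := by rw [hS.mul_self]; group
        _ = t * (t * s * t) * t := by group
    rw [this, h, mul_one, hS.mul_self]
  · calc t * s * t * (t * s * t) = t * s * (t * t) * s * t := by group
      _ = t * (s * s) * t := by rw [hS.mul_self]; group
      _ = 1 := by rw [h2, mul_one, hS.mul_self]

lemma t_conj_fix {s : G} (hs : s • a = a) : (t * s * t) • (t • a) = t • a := by
  rw [mul_smul, mul_smul, t_t hS, hs]

/-- `K` is sharply transitive on the involutions of `G_a`: existence. -/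
lemma exists_K_conj {s s' : G} (hs : s ∈ involutionsIn (stabilizer G a : Set G))
    (hs' : s' ∈ involutionsIn (stabilizer G a : Set G)) :
    ∃ k ∈ invertedBy (DD G a t) t, k * s * k⁻¹ = s' := by
  obtain ⟨h1, h2, h3⟩ := hs
  obtain ⟨h1', h2', h3'⟩ := hs'
  obtain ⟨h4, h5⟩ := t_conj_invol hS h2' h3'
  obtain ⟨w, ⟨hw, hwa, hws⟩, -⟩ := exists_unique_swap hS h1 h2 h3 (t_conj_fix hS h1') h4 h5
  refine ⟨t * w, K_of_swap hS hw hwa, ?_⟩
  rw [mul_inv_rev, inv_eq_of_mul_eq_one_left hw, t_inv hS]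
  calc t * w * s * (w * t) = t * (w * s * w) * t := by group
    _ = t * (t * s' * t) * t := by rw [hws]
    _ = (t * t) * s' * (t * t) := by group
    _ = s' := by rw [hS.mul_self]; group

/-- `K` is sharply transitive on the involutions of `G_a`: uniqueness. -/
lemma K_conj_inj {s k₁ k₂ : G} (hs : s ∈ involutionsIn (stabilizer G a : Set G))
    (hk₁ : k₁ ∈ invertedBy (DD G a t) t) (hk₂ : k₂ ∈ invertedBy (DD G a t) t)
    (h : k₁ * s * k₁⁻¹ = k₂ * s * k₂⁻¹) : k₁ = k₂ := by
  obtain ⟨h1, h2, h3⟩ := hs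
  set s' := k₁ * s * k₁⁻¹ with hs'
  have hs'a : s' • a = a := by
    have hk : k₁ ∈ stabilizer G a := hk₁.1.1
    have : s' ∈ stabilizer G a :=
      Subgroup.mul_mem _ (Subgroup.mul_mem _ hk h1) (Subgroup.inv_mem _ hk)
    exact this
  have hs'1 : s' ≠ 1 := by
    intro h4
    apply h2
    have : s = k₁⁻¹ * s' * k₁ := by rw [hs']; group
    rw [this, h4]; group
  have hs'2 : s' * s' = 1 := by
    calc s' * s' = k₁ * (s * s) * k₁⁻¹ := by rw [hs']; group
      _ = 1 := by rw [h3]; group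
  obtain ⟨h4, h5⟩ := t_conj_invol hS hs'1 hs'2
  obtain ⟨w, -, huniq⟩ := exists_unique_swap hS h1 h2 h3 (t_conj_fix hS hs'a) h4 h5
  have hform : ∀ k ∈ invertedBy (DD G a t) t, k * s * k⁻¹ = s' →
      (t * k) * (t * k) = 1 ∧ (t * k) • a = t • a ∧ (t * k) * s * (t * k) = t * s' * t := by
    intro k hk hks
    obtain ⟨h6, h7⟩ := t_mul_K hS hk
    refine ⟨h6, h7, ?_⟩
    have h8 : (t * k)⁻¹ = t * k := inv_eq_of_mul_eq_one_left h6
    have h9 : (t * k) * s * (t * k)⁻¹ = t * (k * s * k⁻¹) * t⁻¹ := by group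
    rw [h8, hks, t_inv hS] at h9
    exact h9
  have e1 := huniq _ (hform k₁ hk₁ rfl)
  have e2 := huniq _ (hform k₂ hk₂ h.symm)
  exact mul_left_cancel (e1.trans e2.symm)

lemma exists_sqrt {k : G} (hk : k ∈ invertedBy (DD G a t) t) :
    ∃ y ∈ invertedBy (DD G a t) t, y * y = k ∧ y ∈ Subgroup.zpowers k := by
  obtain ⟨l, hl⟩ := D_odd_order hS hk.1
  set y := k ^ (l + 1) with hy
  have hyy : y * y = k := by
    rw [hy, ← pow_add]
    have h1 : k ^ (2 * l + 1) = 1 := by rw [← hl]; exact pow_orderOf_eq_one k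
    have h2 : l + 1 + (l + 1) = (2 * l + 1) + 1 := by ring
    rw [h2, pow_succ, h1, one_mul]
  refine ⟨y, ⟨Subgroup.pow_mem _ hk.1 _, ?_⟩, hyy, Subgroup.npow_mem_zpowers _ _⟩
  have h3 := conj_pow (a := t) (b := k) (i := l + 1)
  rw [hy, ← h3, hk.2, inv_pow]

/-- Every involution swapping `a` and `t • a` is a `K`-conjugate of `t`. -/
lemma exists_K_conj_t {w : G} (hw : w * w = 1) (hwa : w • a = t • a) :
    ∃ k ∈ invertedBy (DD G a t) t, k * t * k⁻¹ = w := by
  have hz := K_of_swap hS hw hwa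
  -- `z = w * t` is the inverse of `t * w`
  have hz' : w * t ∈ invertedBy (DD G a t) t := by
    have h1 : (t * w)⁻¹ = w * t := by
      rw [mul_inv_rev, inv_eq_of_mul_eq_one_left hw, t_inv hS]
    rw [← h1]
    refine ⟨Subgroup.inv_mem _ hz.1, ?_⟩
    have h2 := hz.2
    calc t * (t * w)⁻¹ * t⁻¹ = (t * (t * w) * t⁻¹)⁻¹ := by group
      _ = ((t * w)⁻¹)⁻¹ := by rw [h2]
  obtain ⟨k, hk, hkk, -⟩ := exists_sqrt hS hz'
  refine ⟨k, hk, ?_⟩
  have h1 : t * k * t = k⁻¹ := by
    have := hk.2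
    rwa [t_inv hS] at this
  have h2 : t * k⁻¹ = k * t := by
    rw [← h1]
    calc t * (t * k * t) = (t * t) * k * t := by group
      _ = k * t := by rw [hS.mul_self, one_mul]
  calc k * t * k⁻¹ = k * (t * k⁻¹) := by group
    _ = k * (k * t) := by rw [h2]
    _ = (k * k) * t := by group
    _ = w * t * t := by rw [hkk]
    _ = w * (t * t) := by group
    _ = w := by rw [hS.mul_self, mul_one]

/-- The structure equation: existence and uniqueness. -/
lemma exists_unique_structure :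
    ∃! p : G × G, p.1 ∈ involutionsIn (stabilizer G a : Set G) ∧ p.2 ∈ Q ∧
      t * p.1 * t = p.2⁻¹ * t * p.2 := by
  obtain ⟨e, he, heu⟩ := invol_fix hS hS.ne_one hS.mul_self
  have hea : e ≠ a := by
    rintro rfl
    exact t_ne hS he
  obtain ⟨r, hr, hre⟩ := Q_trans hS hea
  set u := r⁻¹ * t * r with hu
  have hu1 : u ≠ 1 := by
    intro h
    apply hS.ne_one
    have : t = r * u * r⁻¹ := by rw [hu]; group
    rw [this, h]; group
  have hu2 : u * u = 1 := by
    calc u * u = r⁻¹ * (t * t) * r := by rw [hu]; group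
      _ = 1 := by rw [hS.mul_self]; group
  have hub : u • t • a = t • a := by
    rw [hu, mul_smul, mul_smul, hre, he, ← hre, inv_smul_smul]
  obtain ⟨h1, h2⟩ := t_conj_invol hS hu1 hu2
  have h3 : (t * u * t) • a = a := by
    rw [mul_smul, mul_smul, hub, t_t hS]
  have hkey : t * (t * u * t) * t = u := by
    calc t * (t * u * t) * t = (t * t) * u * (t * t) := by group
      _ = u := by rw [hS.mul_self]; group
  refine ⟨(t * u * t, r), ⟨⟨h3, h1, h2⟩, hr, hkey⟩, ?_⟩
  rintro ⟨s', r'⟩ ⟨⟨h4, h5, h6⟩, hr', h7⟩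
  simp only at h4 h5 h6 hr' h7
  obtain ⟨h8, h9⟩ := t_conj_invol hS h5 h6
  have h10 : (t * s' * t) • t • a = t • a := t_conj_fix hS h4
  have h11 : (t * s' * t) • (r'⁻¹ • e) = r'⁻¹ • e := by
    rw [h7, mul_smul, mul_smul, smul_inv_smul, he]
  have h12 : r'⁻¹ • e = t • a := fix_eq hS h8 h9 h11 h10
  have h13 : r' • t • a = e := by rw [← h12, smul_inv_smul]
  have h14 : r' = r := Q_unique hS hr' hr (t_ne hS) (h13.trans hre.symm)
  subst h14
  have h15 : s' = t * u * t := by
    rw [hu, ← h7]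
    calc s' = (t * t) * s' * (t * t) := by rw [hS.mul_self]; group
      _ = t * (t * s' * t) * t := by group
  rw [h15]

end Setup

end Cfsg.Agent.Lib.RankOne
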